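import Cfsg.Agent.H252.ZNStar

/-!
# Two self-centralizing elementary abelian subgroups of index two

`Cross e T U₁ U₂`: `T` is a 2-group of order `8e`, `U₁ ≠ U₂` are self-centralizing elementary abelian
subgroups of index two in `T` (of order `4e`), with intersection of order `2e`. (`e = 1`: dihedral of
order 8; `e = 2`: dihedral of order 8 times order 2.)
-/

set_option autoImplicit false

namespace Cfsg.Agent.H252.ZNCross

open Subgroup Cfsg Cfsg.Agent.ZN Cfsg.Agent.ZN.ChoiceBase Cfsg.Agent.ZN.ChoiceSit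
open Cfsg.Agent.Classification.ZNEndA Cfsg.Agent.Classification.ZNEndB

universe u

variable {G : Type u} [Group G]

structure Cross (e : ℕ) (T U₁ U₂ : Subgroup G) : Prop where
  pos : 0 < e
  two : IsPGroup 2 T
  cardT : Nat.card T = 8 * e
  le₁ : U₁ ≤ T
  le₂ : U₂ ≤ T
  ne : U₁ ≠ U₂
  card₁ : Nat.card U₁ = 4 * e
  card₂ : Nat.card U₂ = 4 * e
  elem₁ : ∀ a ∈ U₁, a * a = 1
  elem₂ : ∀ a ∈ U₂, a * a = 1
  cent₁ : centralizer (U₁ : Set G) ≤ U₁
  cent₂ : centralizer (U₂ : Set G) ≤ U₂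

theorem isElem_of {U : Subgroup G} (h : ∀ a ∈ U, a * a = 1) : IsElementaryAbelian 2 U :=
  ⟨⟨⟨fun a b => Subtype.ext (comm_of_elem h a.2 b.2)⟩⟩, fun a ha => by rw [pow_two]; exact h a ha⟩

theorem sq_of_isElem {U : Subgroup G} (h : IsElementaryAbelian 2 U) : ∀ a ∈ U, a * a = 1 :=
  fun a ha => by rw [← pow_two]; exact h.2 a ha

/-- A subgroup contained in the union of two subgroups is contained in one of them. -/
theorem le_or_le {W U₁ U₂ : Subgroup G} (h : ∀ w ∈ W, w ∈ U₁ ∨ w ∈ U₂) : W ≤ U₁ ∨ W ≤ U₂ := by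
  by_contra hcon
  push Not at hcon
  obtain ⟨h1, h2⟩ := hcon
  obtain ⟨a, ha, ha1⟩ := Set.not_subset.1 h1
  obtain ⟨b, hb, hb2⟩ := Set.not_subset.1 h2
  have ha2 : a ∈ U₂ := (h a ha).resolve_left ha1
  have hb1 : b ∈ U₁ := (h b hb).resolve_right hb2
  rcases h (a * b) (mul_mem ha hb) with h3 | h3
  · apply ha1
    have := mul_mem h3 (inv_mem hb1)
    rwa [mul_inv_cancel_right] at this
  · apply hb2
    have := mul_mem (inv_mem ha2) h3
    rwa [inv_mul_cancel_left] at this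

namespace Cross

variable {e : ℕ} {T U₁ U₂ : Subgroup G}

theorem symm (h : Cross e T U₁ U₂) : Cross e T U₂ U₁ :=
  ⟨h.pos, h.two, h.cardT, h.le₂, h.le₁, h.ne.symm, h.card₂, h.card₁, h.elem₂, h.elem₁, h.cent₂,
    h.cent₁⟩

theorem relIndex₁ (h : Cross e T U₁ U₂) : U₁.relIndex T = 2 := by
  have h1 := card_mul_relIndex h.le₁
  rw [h.card₁, h.cardT] at h1
  have h2 : 4 * e * U₁.relIndex T = 4 * e * 2 := by rw [h1]; ring
  exact Nat.eq_of_mul_eq_mul_left (by have := h.pos; omega) h2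

theorem relIndex₂ (h : Cross e T U₁ U₂) : U₂.relIndex T = 2 := h.symm.relIndex₁

theorem le_normalizer_of_relIndex_two {H K : Subgroup G} (hHK : H ≤ K) (h : H.relIndex K = 2) :
    K ≤ normalizer (H : Set G) := by
  have h1 : (H.subgroupOf K).index = 2 := h
  have h2 : (H.subgroupOf K).Normal := Subgroup.normal_of_index_eq_two h1
  exact (Subgroup.normal_subgroupOf_iff_le_normalizer hHK).1 h2

theorem norm₁ (h : Cross e T U₁ U₂) : T ≤ normalizer (U₁ : Set G) :=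
  le_normalizer_of_relIndex_two h.le₁ h.relIndex₁

theorem norm₂ (h : Cross e T U₁ U₂) : T ≤ normalizer (U₂ : Set G) := h.symm.norm₁

theorem not_le [Finite G] (h : Cross e T U₁ U₂) : ¬ U₁ ≤ U₂ := fun h1 =>
  h.ne (Subgroup.eq_of_le_of_card_ge h1 (by rw [h.card₁, h.card₂]))

theorem not_le' [Finite G] (h : Cross e T U₁ U₂) : ¬ U₂ ≤ U₁ := h.symm.not_le

theorem mul_mem₁ (h : Cross e T U₁ U₂) {a b : G} (ha : a ∈ T) (hb : b ∈ T) (ha1 : a ∉ U₁)
    (hb1 : b ∉ U₁) : a * b ∈ U₁ := mul_mem_of_relIndex_two h.relIndex₁ ha hb ha1 hb1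

theorem mul_mem₂ (h : Cross e T U₁ U₂) {a b : G} (ha : a ∈ T) (hb : b ∈ T) (ha1 : a ∉ U₂)
    (hb1 : b ∉ U₂) : a * b ∈ U₂ := h.symm.mul_mem₁ ha hb ha1 hb1

theorem card_inf [Finite G] (h : Cross e T U₁ U₂) : Nat.card ↥(U₁ ⊓ U₂) = 2 * e := by
  have h1 : (U₁ ⊓ U₂).relIndex U₁ = 2 := by
    rw [inf_relIndex_left]
    have h2 : U₂.relIndex U₁ ≤ 2 :=
      (relIndex_le_of_le_right h.le₁ (by rw [h.relIndex₂]; norm_num)).trans h.relIndex₂.le
    have h3 : U₂.relIndex U₁ ≠ 1 := by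
      rw [Ne, relIndex_eq_one]
      exact h.not_le
    have h4 : U₂.relIndex U₁ ≠ 0 := index_ne_zero_of_finite (H := U₂.subgroupOf U₁)
    omega
  have h2 := card_mul_relIndex (inf_le_left : U₁ ⊓ U₂ ≤ U₁)
  rw [h1, h.card₁] at h2
  omega

theorem sup_eq [Finite G] (h : Cross e T U₁ U₂) : U₁ ⊔ U₂ = T := by
  apply le_antisymm (sup_le h.le₁ h.le₂)
  obtain ⟨b, hb, hb1⟩ := Set.not_subset.1 h.not_le'
  intro t ht
  by_cases h1 : t ∈ U₁
  · exact le_sup_left (a := U₁) h1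
  · have h2 := h.mul_mem₁ ht (inv_mem (h.le₂ hb)) h1 (fun h3 => hb1 (inv_mem_iff.1 h3))
    have h3 : t = t * b⁻¹ * b := by group
    rw [h3]
    exact mul_mem (le_sup_left (a := U₁) h2) (le_sup_right (a := U₁) hb)

/-- An involution-closed element outside `U₁ ∪ U₂` has order four. -/
theorem mem_or_of_sq [Finite G] (h : Cross e T U₁ U₂) {x : G} (hx : x ∈ T) (hx2 : x * x = 1) :
    x ∈ U₁ ∨ x ∈ U₂ := by
  by_contra hcon
  push Not at hcon
  obtain ⟨hx1, hxU2⟩ := hcon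
  obtain ⟨b, hb, hb1⟩ := Set.not_subset.1 h.not_le'
  have hb' : b⁻¹ ∉ U₁ := fun h3 => hb1 (inv_mem_iff.1 h3)
  have hv : x * b⁻¹ ∈ U₁ := h.mul_mem₁ hx (inv_mem (h.le₂ hb)) hx1 hb'
  set v := x * b⁻¹ with hvdef
  have hxv : x = v * b := by rw [hvdef]; group
  have hv2 : v ∉ U₂ := by
    intro h3
    apply hxU2
    rw [hxv]
    exact mul_mem h3 hb
  have hvv : v * v = 1 := h.elem₁ v hv
  have hbb : b * b = 1 := h.elem₂ b hb
  have hcomm : v * b = b * v := by
    rw [hxv] at hx2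
    have h3 : v * b * (v * b) = 1 := hx2
    calc v * b = v * b * 1 := by rw [mul_one]
      _ = v * b * (v * b * (v * b)) := by rw [h3]
      _ = v * b * (v * b) * (v * b) := by group
      _ = 1 * (v * b) := by rw [h3]
      _ = (v * v) * (v * b) * (b * b) * 1 := by rw [hvv, hbb]; group
      _ = (v * v) * (v * b) * (b * b) * (v * b * (v * b))⁻¹ := by rw [h3, inv_one]
      _ = v * v * v * b * b * b * b⁻¹ * v⁻¹ * b⁻¹ * v⁻¹ := by group
      _ = v * (v * v) * (b * b) * v⁻¹ * b⁻¹ * v⁻¹ := by group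
      _ = v * v⁻¹ * b⁻¹ * v⁻¹ := by rw [hvv, hbb]; group
      _ = b⁻¹ * v⁻¹ := by group
      _ = b * v := by rw [inv_eq_of_mul_eq_one_left hbb, inv_eq_of_mul_eq_one_left hvv]
  -- `b` centralizes `U₁`
  apply hb1
  apply h.cent₁
  rw [mem_centralizer_iff]
  intro a ha
  by_cases ha2 : a ∈ U₂
  · exact comm_of_elem h.elem₂ ha2 hb
  · have h4 : a * v ∈ U₂ := h.mul_mem₂ (h.le₁ ha) (h.le₁ hv) ha2 hv2
    have h5 : (a * v) * b = b * (a * v) := comm_of_elem h.elem₂ h4 hb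
    have h6 : v * a = a * v := comm_of_elem h.elem₁ hv ha
    have h7 : a * b * v = b * a * v := by
      calc a * b * v = a * (b * v) := by group
        _ = a * (v * b) := by rw [hcomm]
        _ = (a * v) * b := by group
        _ = b * (a * v) := h5
        _ = b * a * v := by group
    exact mul_right_cancel h7

/-- Elementary abelian subgroups of `T` lie in `U₁` or in `U₂`. -/
theorem elem_le_or [Finite G] (h : Cross e T U₁ U₂) {W : Subgroup G} (hWT : W ≤ T)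
    (hW : ∀ a ∈ W, a * a = 1) : W ≤ U₁ ∨ W ≤ U₂ :=
  le_or_le fun w hw => h.mem_or_of_sq (hWT hw) (hW w hw)

theorem eq_or_of_card [Finite G] (h : Cross e T U₁ U₂) {W : Subgroup G} (hWT : W ≤ T)
    (hW : ∀ a ∈ W, a * a = 1) (hc : 4 * e ≤ Nat.card W) : W = U₁ ∨ W = U₂ := by
  rcases h.elem_le_or hWT hW with h1 | h1
  · exact Or.inl (Subgroup.eq_of_le_of_card_ge h1 (by rw [h.card₁]; exact hc))
  · exact Or.inr (Subgroup.eq_of_le_of_card_ge h1 (by rw [h.card₂]; exact hc))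

theorem AA_eq [Finite G] (h : Cross e T U₁ U₂) : AA T = {U₁, U₂} := by
  ext W
  constructor
  · intro hW
    have h1 := hW.2.2 U₁ (isElem_of h.elem₁) h.le₁
    rw [h.card₁] at h1
    exact h.eq_or_of_card hW.2.1 (sq_of_isElem hW.1) h1
  · have key : ∀ B : Subgroup G, IsElementaryAbelian 2 B → B ≤ T → Nat.card B ≤ 4 * e := by
      intro B hB hBT
      rcases h.elem_le_or hBT (sq_of_isElem hB) with h1 | h1
      · rw [← h.card₁]; exact Subgroup.card_le_of_le h1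
      · rw [← h.card₂]; exact Subgroup.card_le_of_le h1
    rintro (rfl | rfl)
    · exact ⟨isElem_of h.elem₁, h.le₁, fun B hB hBT => by rw [h.card₁]; exact key B hB hBT⟩
    · exact ⟨isElem_of h.elem₂, h.le₂, fun B hB hBT => by rw [h.card₂]; exact key B hB hBT⟩

theorem jj_eq [Finite G] (h : Cross e T U₁ U₂) : jj T = T := by
  rw [ChoiceBase.jj_eq, h.AA_eq, sSup_pair, h.sup_eq]

theorem mm_eq [Finite G] (h : Cross e T U₁ U₂) : mm T = 4 * e := by
  rw [← h.card₁]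
  apply ChoiceBase.mm_eq
  rw [h.AA_eq]
  exact Or.inl rfl

/-- `Ω₁Z(T) = U₁ ∩ U₂`. -/
theorem zc_eq [Finite G] (h : Cross e T U₁ U₂) : zc T = U₁ ⊓ U₂ := by
  ext x
  rw [mem_zc, mem_inf]
  constructor
  · rintro ⟨-, -, h3⟩
    refine ⟨h.cent₁ ?_, h.cent₂ ?_⟩
    · rw [mem_centralizer_iff]; exact fun y hy => h3 y (h.le₁ hy)
    · rw [mem_centralizer_iff]; exact fun y hy => h3 y (h.le₂ hy)
  · rintro ⟨h1, h2⟩
    refine ⟨h.le₁ h1, by rw [pow_two]; exact h.elem₁ x h1, fun y hy => ?_⟩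
    have h4 : T ≤ centralizer ({x} : Set G) := by
      rw [← h.sup_eq]
      refine sup_le ?_ ?_
      · intro y hy
        rw [mem_centralizer_singleton_iff]
        exact comm_of_elem h.elem₁ hy h1
      · intro y hy
        rw [mem_centralizer_singleton_iff]
        exact comm_of_elem h.elem₂ hy h2
    exact mem_centralizer_singleton_iff.1 (h4 hy)

/-- Every element of `N_G(T)` fixes or swaps `U₁, U₂`. -/
theorem fix_or_swap [Finite G] (h : Cross e T U₁ U₂) {g : G} (hg : g ∈ normalizer (T : Set G)) :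
    (cj g U₁ = U₁ ∧ cj g U₂ = U₂) ∨ (cj g U₁ = U₂ ∧ cj g U₂ = U₁) := by
  have hgT : cj g T = T := cj_eq_of_mem_normalizer hg
  have key : ∀ U ∈ AA T, cj g U ∈ AA T := by
    intro U hU
    have := cj_mem_AA g hU
    rwa [hgT] at this
  have hinj : cj g U₁ ≠ cj g U₂ := by
    intro h1
    apply h.ne
    rw [← cj_inv_cj g U₁, h1, cj_inv_cj]
  have h1 : cj g U₁ = U₁ ∨ cj g U₁ = U₂ := by
    have := key U₁ (by rw [h.AA_eq]; exact Or.inl rfl)
    rw [h.AA_eq] at this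
    exact this
  have h2 : cj g U₂ = U₁ ∨ cj g U₂ = U₂ := by
    have := key U₂ (by rw [h.AA_eq]; exact Or.inr rfl)
    rw [h.AA_eq] at this
    exact this
  rcases h1 with h1 | h1 <;> rcases h2 with h2 | h2
  · exact absurd (h1.trans h2.symm) hinj
  · exact Or.inl ⟨h1, h2⟩
  · exact Or.inr ⟨h1, h2⟩
  · exact absurd (h1.trans h2.symm) hinj

theorem cj [Finite G] (h : Cross e T U₁ U₂) (g : G) : Cross e (cj g T) (cj g U₁) (cj g U₂) where
  pos := h.pos
  two := isPGroup_cj g h.two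
  cardT := by rw [card_cj]; exact h.cardT
  le₁ := cj_mono g h.le₁
  le₂ := cj_mono g h.le₂
  ne := by
    intro h1
    apply h.ne
    rw [← cj_inv_cj g U₁, h1, cj_inv_cj]
  card₁ := by rw [card_cj]; exact h.card₁
  card₂ := by rw [card_cj]; exact h.card₂
  elem₁ := fun a ha => by
    have h1 := h.elem₁ _ (mem_cj.1 ha)
    have h2 : a * a = g * (g⁻¹ * a * g * (g⁻¹ * a * g)) * g⁻¹ := by group
    rw [h2, h1]; group
  elem₂ := fun a ha => by
    have h1 := h.elem₂ _ (mem_cj.1 ha)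
    have h2 : a * a = g * (g⁻¹ * a * g * (g⁻¹ * a * g)) * g⁻¹ := by group
    rw [h2, h1]; group
  cent₁ := by
    rw [← cj_centralizer]
    exact cj_mono g h.cent₁
  cent₂ := by
    rw [← cj_centralizer]
    exact cj_mono g h.cent₂

end Cross

end Cfsg.Agent.H252.ZNCross
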