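import Cfsg.Agent.H252.ZNCross

/-!
# ZN-groups: the data `Dat e B U₁ U₂` extracted from the amalgam context
-/

set_option autoImplicit false

namespace Cfsg.Agent.H252.ZNData

open Subgroup Cfsg Cfsg.Agent.ZN Cfsg.Agent.ZN.ChoiceBase Cfsg.Agent.ZN.ChoiceSit
open Cfsg.Agent.Classification.ZNEndA Cfsg.Agent.Classification.ZNEndB
open Cfsg.Agent.H252.ZNCross

universe u

variable {G : Type u} [Group G]

/-- `B = U₁ U₂` with `Uᵢ` self-centralizing elementary abelian of order `4e`, `|N_G(Uᵢ)| = 24e`, both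
`N_G(Uᵢ)` maximal 2-local; for `e = 2` there are central elements `cᵢ` of `N_G(Uᵢ)` in `Uᵢ`. -/
structure Dat (e : ℕ) (B U₁ U₂ : Subgroup G) : Prop where
  he : e = 1 ∨ e = 2
  cross : Cross e B U₁ U₂
  norm₁ : Nat.card (normalizer (U₁ : Set G)) = 24 * e
  norm₂ : Nat.card (normalizer (U₂ : Set G)) = 24 * e
  max₁ : IsMaximalTwoLocal (normalizer (U₁ : Set G))
  max₂ : IsMaximalTwoLocal (normalizer (U₂ : Set G))
  c : e = 2 → ∃ c₁ c₂ : G, Good48 U₁ c₁ ∧ Good48 U₂ c₂ ∧ c₁ ≠ c₂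

theorem isMaximalTwoLocal_of_ctx [Finite G] {N B P Q : Subgroup G}
    (hL : IsCharacteristicTwoType G) (h : Ctx N B P Q)
    (h1 : o2 P = zl B P) (h4 : Nat.card (zc B) ≤ 4) :
    IsMaximalTwoLocal (normalizer (o2 P : Set G)) := by
  have hP := FinalBridge.normalizer_o2_eq hL h h1 h4
  refine ⟨FinalBridge.isTwoLocal_normalizer_o2 h h1, fun X hX hle => ?_⟩
  rw [hP] at hle
  have h2 := FinalBridge.le_normalizer_of_isTwoLocal h h1 hX hle
  apply le_antisymm (h2.trans (FinalBridge.normalizer_le_normalizer_o2 P))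
  rw [hP]; exact hle

/-- The data attached to a context. -/
theorem exists_dat_of_ctx [Finite G] {N B P Q : Subgroup G}
    (hL : IsCharacteristicTwoType G) (h : Ctx N B P Q) :
    ∃ (e : ℕ) (U₁ U₂ : Subgroup G), Dat e B U₁ U₂ := by
  obtain ⟨h1, h2, h3, h4⟩ := Amalgam.result h
  have hs := FinalBridge.ctx_symm h
  obtain ⟨e, he, hE₁, hE₂, hcard₁, hcard₂, hC₁, hC₂, hN₁, hN₂, h12, h21, hinf, hc⟩ :=
    FinalBridge.data hL h h1 h2 h3 h4
  have hB := FinalBridge.card_base h.blkP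
  have hne : o2 P ≠ o2 Q := by
    intro hh
    rw [hh, inf_idem, hcard₂] at hinf
    omega
  refine ⟨e, o2 P, o2 Q, he, ⟨by omega, h.blkP.two, by rw [hB, hcard₁]; ring, h.blkP.o2_le,
    h.blkQ.o2_le, hne, hcard₁, hcard₂, hE₁, hE₂, hC₁, hC₂⟩, hN₁, hN₂,
    isMaximalTwoLocal_of_ctx hL h h1 h4, isMaximalTwoLocal_of_ctx hL hs h2 h4, ?_⟩
  intro he2
  subst he2
  obtain ⟨c₁, hc₁, c₂, hc₂, hc₁1, hc₂1, hcne, hcen₁, hcen₂⟩ := hc rfl
  exact ⟨c₁, c₂, ⟨hcard₁, hE₁, hC₁, hN₁, hc₁, hc₁1, hcen₁⟩,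
      ⟨hcard₂, hE₂, hC₂, hN₂, hc₂, hc₂1, hcen₂⟩, hcne⟩

theorem isMaximalTwoLocal_cj {M : Subgroup G} (g : G) (h : IsMaximalTwoLocal M) :
    IsMaximalTwoLocal (cj g M) := by
  refine ⟨isTwoLocal_cj g h.1, fun N hN hle => ?_⟩
  have h1 := h.2 (cj g⁻¹ N) (isTwoLocal_cj _ hN) (by
    have := cj_mono g⁻¹ hle
    rwa [cj_inv_cj] at this)
  rw [← h1, cj_cj_inv]

theorem good48_cj {U : Subgroup G} {c : G} (h : Good48 U c) (g : G) :
    Good48 (cj g U) (g * c * g⁻¹) where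
  card := by rw [card_cj]; exact h.card
  elem := fun a ha => by
    have h1 := h.elem _ (mem_cj.1 ha)
    have h2 : a * a = g * (g⁻¹ * a * g * (g⁻¹ * a * g)) * g⁻¹ := by group
    rw [h2, h1]; group
  cent := by
    rw [← cj_centralizer]
    exact cj_mono g h.cent
  norm := by
    rw [← cj_normalizer, card_cj]
    exact h.norm
  mem := by
    rw [mem_cj]
    have : g⁻¹ * (g * c * g⁻¹) * g = c := by group
    rw [this]; exact h.mem
  ne_one := by
    intro h1
    apply h.ne_one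
    have : c = g⁻¹ * (g * c * g⁻¹) * g := by group
    rw [this, h1]; group
  comm := by
    intro x hx
    rw [← cj_normalizer] at hx
    have h1 := h.comm _ (mem_cj.1 hx)
    calc x * (g * c * g⁻¹) = g * ((g⁻¹ * x * g) * c) * g⁻¹ := by group
      _ = g * (c * (g⁻¹ * x * g)) * g⁻¹ := by rw [h1]
      _ = g * c * g⁻¹ * x := by group

namespace Dat

variable {e : ℕ} {B U₁ U₂ : Subgroup G}

theorem symm (h : Dat e B U₁ U₂) : Dat e B U₂ U₁ :=
  ⟨h.he, h.cross.symm, h.norm₂, h.norm₁, h.max₂, h.max₁, fun he => by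
    obtain ⟨c₁, c₂, h1, h2, h3⟩ := h.c he
    exact ⟨c₂, c₁, h2, h1, h3.symm⟩⟩

theorem cj [Finite G] (h : Dat e B U₁ U₂) (g : G) : Dat e (cj g B) (cj g U₁) (cj g U₂) where
  he := h.he
  cross := h.cross.cj g
  norm₁ := by rw [← cj_normalizer, card_cj]; exact h.norm₁
  norm₂ := by rw [← cj_normalizer, card_cj]; exact h.norm₂
  max₁ := by rw [← cj_normalizer]; exact isMaximalTwoLocal_cj g h.max₁
  max₂ := by rw [← cj_normalizer]; exact isMaximalTwoLocal_cj g h.max₂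
  c := fun he => by
    obtain ⟨c₁, c₂, h1, h2, h3⟩ := h.c he
    refine ⟨_, _, good48_cj h1 g, good48_cj h2 g, fun h4 => h3 ?_⟩
    exact mul_left_cancel (mul_right_cancel h4)

theorem good24 (h : Dat 1 B U₁ U₂) : Good24 U₁ :=
  ⟨h.cross.card₁, h.cross.elem₁, h.cross.cent₁, h.norm₁⟩

theorem good24' (h : Dat 1 B U₁ U₂) : Good24 U₂ := h.symm.good24

/-- `B` has index three in `N_G(U₁)`. -/
theorem relIndex (h : Dat e B U₁ U₂) : B.relIndex (normalizer (U₁ : Set G)) = 3 := by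
  have h1 := card_mul_relIndex h.cross.norm₁
  rw [h.cross.cardT, h.norm₁] at h1
  have h2 : 8 * e * B.relIndex (normalizer (U₁ : Set G)) = 8 * e * 3 := by rw [h1]; ring
  exact Nat.eq_of_mul_eq_mul_left (by have := h.cross.pos; omega) h2

/-- A subgroup between `B` and `N_G(U₁)` is one of the two. -/
theorem eq_or_eq [Finite G] (h : Dat e B U₁ U₂) {X : Subgroup G} (h1 : B ≤ X)
    (h2 : X ≤ normalizer (U₁ : Set G)) : X = B ∨ X = normalizer (U₁ : Set G) := by
  have h3 := relIndex_mul_relIndex B X (normalizer (U₁ : Set G)) h1 h2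
  rw [h.relIndex] at h3
  have h4 : B.relIndex X ∣ 3 := ⟨_, h3.symm⟩
  rcases (Nat.dvd_prime (by norm_num)).1 h4 with h5 | h5
  · exact Or.inl (le_antisymm (relIndex_eq_one.1 h5) h1)
  · rw [h5] at h3
    exact Or.inr (le_antisymm h2 (relIndex_eq_one.1 (by omega)))

theorem normalizer_ne [Finite G] (h : Dat e B U₁ U₂) :
    normalizer (U₁ : Set G) ≠ normalizer (U₂ : Set G) := by
  intro hN
  rcases h.he with rfl | rfl
  · apply h.cross.ne
    apply le_antisymm
    · exact h.good24'.le_of_normal h.good24.isPGroup (h.cross.le₁.trans h.cross.norm₂) hN.ge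
    · exact h.good24.le_of_normal h.good24'.isPGroup (h.cross.le₂.trans h.cross.norm₁) hN.le
  · obtain ⟨c₁, c₂, h1, h2, h3⟩ := h.c rfl
    obtain ⟨W, x, hW⟩ := h1.exists_W
    have h5 : U₁ ⊓ U₂ = W := by
      apply hW.unique h1 inf_le_left h.cross.card_inf
      intro g hg
      have hg2 : g ∈ normalizer (U₂ : Set G) := hN ▸ hg
      apply mem_normalizer_of_cj_le
      rw [cj_inf, cj_eq_of_mem_normalizer hg, cj_eq_of_mem_normalizer hg2]
    apply hW.notMem
    rw [← h5]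
    refine mem_inf.2 ⟨h1.mem, h.cross.cent₂ ?_⟩
    rw [mem_centralizer_iff]
    exact fun u hu => h1.comm u (h.cross.norm₁ (h.cross.le₂ hu))

theorem inf_normalizer [Finite G] (h : Dat e B U₁ U₂) :
    normalizer (U₁ : Set G) ⊓ normalizer (U₂ : Set G) = B := by
  rcases h.eq_or_eq (le_inf h.cross.norm₁ h.cross.norm₂) inf_le_left with h1 | h1
  · exact h1
  · exfalso
    rcases h.symm.eq_or_eq (le_inf h.cross.norm₁ h.cross.norm₂) inf_le_right with h2 | h2
    · have h3 : B = normalizer (U₁ : Set G) := h2.symm.trans h1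
      have h4 := h.relIndex
      rw [← h3, relIndex_self] at h4
      omega
    · exact h.normalizer_ne (h1.symm.trans h2)

/-- `N_G(B) ∩ N_G(U₁) = B`. -/
theorem normalizer_inf [Finite G] (h : Dat e B U₁ U₂) :
    normalizer (B : Set G) ⊓ normalizer (U₁ : Set G) = B := by
  rw [← h.inf_normalizer]
  apply le_antisymm
  · intro g hg
    obtain ⟨hg1, hg2⟩ := mem_inf.1 hg
    refine mem_inf.2 ⟨hg2, ?_⟩
    rw [h.inf_normalizer] at hg1
    rcases h.cross.fix_or_swap hg1 with h3 | h3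
    · exact mem_normalizer_iff_cj.2 h3.2
    · exfalso
      apply h.cross.ne
      rw [← h3.1]
      exact (cj_eq_of_mem_normalizer hg2).symm
  · rw [h.inf_normalizer]
    exact le_inf le_normalizer h.cross.norm₁

/-- An element of `N_G(B)` outside `B` swaps `U₁` and `U₂`. -/
theorem swap_of_not_mem [Finite G] (h : Dat e B U₁ U₂) {g : G} (hg : g ∈ normalizer (B : Set G))
    (hgB : g ∉ B) : ChoiceBase.cj g U₁ = U₂ ∧ ChoiceBase.cj g U₂ = U₁ := by
  rcases h.cross.fix_or_swap hg with h3 | h3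
  · exfalso
    apply hgB
    rw [← h.normalizer_inf]
    exact mem_inf.2 ⟨hg, mem_normalizer_iff_cj.2 h3.1⟩
  · exact h3

/-- `N_G(B)` is a 2-group. -/
theorem isPGroup_normalizer [Finite G] (h : Dat e B U₁ U₂) :
    IsPGroup 2 ↥(normalizer (B : Set G)) := by
  rintro ⟨g, hg⟩
  have hsq : g ^ 2 ∈ B := by
    by_cases hgB : g ∈ B
    · exact pow_mem hgB 2
    · have h1 := h.swap_of_not_mem hg hgB
      rw [← h.normalizer_inf]
      refine mem_inf.2 ⟨pow_mem hg 2, ?_⟩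
      rw [mem_normalizer_iff_cj, pow_two, ← cj_cj, h1.1, h1.2]
  obtain ⟨k, hk⟩ := h.cross.two ⟨g ^ 2, hsq⟩
  refine ⟨k + 1, Subtype.ext ?_⟩
  have h2 := congrArg Subtype.val hk
  simp only [SubmonoidClass.mk_pow, OneMemClass.coe_one] at h2 ⊢
  rw [pow_succ', pow_mul]
  exact h2

/-- `C_G(U₁ ∩ U₂) = B` if `e = 2`. -/
theorem centralizer_inf [Finite G] (h : Dat 2 B U₁ U₂) :
    centralizer ((U₁ ⊓ U₂ : Subgroup G) : Set G) = B := by
  obtain ⟨c₁, c₂, h1, h2, h3⟩ := h.c rfl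
  have hc₁ : c₁ ∈ U₂ := by
    apply h.cross.cent₂
    rw [mem_centralizer_iff]
    exact fun u hu => h1.comm u (h.cross.norm₁ (h.cross.le₂ hu))
  have hc₂ : c₂ ∈ U₁ := by
    apply h.cross.cent₁
    rw [mem_centralizer_iff]
    exact fun u hu => h2.comm u (h.cross.norm₂ (h.cross.le₁ hu))
  -- the centralizer of `c₁` is `N_G(U₁)`
  have key : ∀ {U : Subgroup G} {c : G}, Good48 U c → IsMaximalTwoLocal (normalizer (U : Set G)) →
      ∀ x : G, x * c = c * x → x ∈ normalizer (U : Set G) := by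
    intro U c hU hmax x hx
    have h5 : IsTwoLocal (normalizer ((zpowers c : Subgroup G) : Set G)) := by
      refine ⟨zpowers c, hU.isPGroup.to_le (by rw [zpowers_le]; exact hU.mem), ?_, rfl⟩
      rw [Ne, zpowers_eq_bot]
      exact hU.ne_one
    have h6 := hmax.2 _ h5 (by
      intro y hy
      exact centralizer_le_normalizer _ (FinalBridge.mem_centralizer_zpowers (hU.comm y hy)))
    rw [← h6]
    exact centralizer_le_normalizer _ (FinalBridge.mem_centralizer_zpowers hx)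
  apply le_antisymm
  · intro x hx
    rw [mem_centralizer_iff] at hx
    rw [← h.inf_normalizer]
    exact mem_inf.2 ⟨key h1 h.max₁ x (hx c₁ (mem_inf.2 ⟨h1.mem, hc₁⟩)).symm,
      key h2 h.max₂ x (hx c₂ (mem_inf.2 ⟨hc₂, h2.mem⟩)).symm⟩
  · rw [← h.cross.zc_eq]
    intro x hx
    rw [mem_centralizer_iff]
    exact fun y hy => ((mem_zc.1 hy).2.2 x hx).symm

/-- `N_G(U₁ ∩ U₂) ≤ N_G(B)` if `e = 2`. -/
theorem normalizer_inf_le [Finite G] (h : Dat 2 B U₁ U₂) :
    normalizer ((U₁ ⊓ U₂ : Subgroup G) : Set G) ≤ normalizer (B : Set G) := by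
  have := normalizer_le_normalizer_centralizer (U₁ ⊓ U₂)
  rwa [h.centralizer_inf] at this

end Dat

end Cfsg.Agent.H252.ZNData
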