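import Cfsg.Agent.H252.ZNData
import Cfsg.Agent.S0112
import Cfsg.Agent.S0113

/-!
# ZN-groups, case `e = 1`: Sylow 2-subgroups with a self-centralizing four-group
-/

set_option autoImplicit false

namespace Cfsg.Agent.H252.ZNOne

open Subgroup Cfsg Cfsg.Agent.ZN Cfsg.Agent.ZN.ChoiceBase Cfsg.Agent.ZN.ChoiceSit
open Cfsg.Agent.Classification.ZNEndA Cfsg.Agent.Classification.ZNEndB
open Cfsg.Agent.H252.ZNCross Cfsg.Agent.H252.ZNData

universe u

/-- In a cyclic group, elements of square one in a subgroup... two involutions are equal. -/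
theorem eq_of_cyclic {P : Type*} [Group P] [Finite P] {C : Subgroup P} (hC : IsCyclic C) {x y : P}
    (hx : x ∈ C) (hy : y ∈ C) (hx1 : x ≠ 1) (hy1 : y ≠ 1) (hx2 : x * x = 1) (hy2 : y * y = 1) :
    x = y := by
  classical
  obtain ⟨g, hg⟩ := hC.exists_generator
  have : Fintype C := Fintype.ofFinite C
  have h1 := IsCyclic.card_pow_eq_one_le (α := C) (n := 2) (by norm_num)
  by_contra hne
  have h3 : ({1, ⟨x, hx⟩, ⟨y, hy⟩} : Finset C) ⊆ Finset.univ.filter fun a : C => a ^ 2 = 1 := by
    intro a ha
    simp only [Finset.mem_insert, Finset.mem_singleton] at ha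
    simp only [Finset.mem_filter, Finset.mem_univ, true_and]
    rcases ha with rfl | rfl | rfl
    · simp
    · exact Subtype.ext (by simpa [pow_two] using hx2)
    · exact Subtype.ext (by simpa [pow_two] using hy2)
  have h4 : ({1, ⟨x, hx⟩, ⟨y, hy⟩} : Finset C).card = 3 := by
    rw [Finset.card_insert_of_notMem, Finset.card_insert_of_notMem, Finset.card_singleton]
    · simp only [Finset.mem_singleton, Subtype.mk.injEq]
      exact hne
    · simp only [Finset.mem_insert, Finset.mem_singleton, not_or]
      exact ⟨fun h => hx1 (congrArg Subtype.val h).symm, fun h => hy1 (congrArg Subtype.val h).symm⟩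
  have h5 := Finset.card_le_card h3
  rw [h4] at h5
  omega

/-- 2-groups with a self-centralizing four-subgroup. -/
theorem two_group {P : Type*} [Group P] [Finite P] (n : ℕ) (hn : 3 ≤ n) (hP : Nat.card P = 2 ^ n)
    (A : Subgroup P) (hA : Nat.card A = 4)
    (hC : centralizer (A : Set P) ≤ A) (hE : ∀ a ∈ A, a * a = 1) :
    ∃ z : P, z ≠ 1 ∧ z * z = 1 ∧ (∀ x : P, (∀ y, y * x = x * y) ↔ (x = 1 ∨ x = z)) ∧
      (∀ V : Subgroup P, Nat.card V = 4 → (∀ a ∈ V, a * a = 1) → z ∈ V →
        centralizer (V : Set P) ≤ V) ∧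
      ∀ V : Subgroup P, (∀ a ∈ V, a * a = 1) → Nat.card V ≤ 4 := by
  classical
  have f2 : Fact (Nat.Prime 2) := ⟨Nat.prime_two⟩
  have hCA : centralizer (A : Set P) = A := le_antisymm hC (le_centralizer_of_elem hE)
  have hcl := Cfsg.Agent.S0112.result (p := 2) n hP A (by rw [hA]; norm_num) hCA
  obtain ⟨C, hCcyc, hCi⟩ := Cfsg.Agent.S0113.result n hn hP hcl
  have hPg : IsPGroup 2 P := IsPGroup.of_card hP
  have hPnt : Nontrivial P := by
    rw [← Finite.one_lt_card_iff_nontrivial, hP]
    exact Nat.one_lt_two_pow (by omega)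
  -- the centre
  have hzA : center P ≤ A := by
    rw [← hCA]
    exact center_le_centralizer _
  have hzne : center P ≠ A := by
    intro h
    have h1 : (⊤ : Subgroup P) ≤ A := by
      rw [← hCA, ← h]
      intro x _
      rw [mem_centralizer_iff]
      exact fun y hy => ((mem_center_iff.1 hy) x).symm
    have h2 := Subgroup.card_le_of_le h1
    rw [hA, Subgroup.card_top, hP] at h2
    have : 2 ^ 3 ≤ 2 ^ n := Nat.pow_le_pow_right (by norm_num) hn
    omega
  have hznt : Nontrivial (center P) := hPg.center_nontrivial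
  have hcz : Nat.card (center P) = 2 := by
    have h1 : Nat.card (center P) ∣ 4 := by rw [← hA]; exact Subgroup.card_dvd_of_le hzA
    have h2 : Nat.card (center P) ≠ 4 := fun h =>
      hzne (Subgroup.eq_of_le_of_card_ge hzA (by rw [h, hA]))
    have h3 : 1 < Nat.card (center P) := Finite.one_lt_card
    have h4 : Nat.card (center P) ≤ 4 := Nat.le_of_dvd (by norm_num) h1
    have h5 : Nat.card (center P) ≠ 3 := by
      intro h; rw [h] at h1; norm_num at h1
    omega
  obtain ⟨z, hz, hz1⟩ := (center P).bot_or_exists_ne_one.resolve_left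
    ((Subgroup.nontrivial_iff_ne_bot _).1 hznt)
  have hzz : z * z = 1 := hE z (hzA hz)
  have hcen : ∀ x : P, (∀ y, y * x = x * y) ↔ (x = 1 ∨ x = z) := by
    intro x
    rw [← mem_center_iff]
    constructor
    · intro hx
      by_contra hcon
      push Not at hcon
      have h3 : ({1, ⟨z, hz⟩, ⟨x, hx⟩} : Finset (center P)).card = 3 := by
        rw [Finset.card_insert_of_notMem, Finset.card_insert_of_notMem, Finset.card_singleton]
        · simp only [Finset.mem_singleton, Subtype.mk.injEq]
          exact hcon.2.symm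
        · simp only [Finset.mem_insert, Finset.mem_singleton, not_or]
          exact ⟨fun h => hz1 (congrArg Subtype.val h).symm,
            fun h => hcon.1 (congrArg Subtype.val h).symm⟩
      have : Fintype (center P) := Fintype.ofFinite _
      have h4 := Finset.card_le_univ ({1, ⟨z, hz⟩, ⟨x, hx⟩} : Finset (center P))
      rw [h3, ← Nat.card_eq_fintype_card, hcz] at h4
      omega
    · rintro (rfl | rfl)
      · exact one_mem _
      · exact hz
  have hidx : ∀ {a b : P}, a ∉ C → b ∉ C → a * b ∈ C := by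
    intro a b ha hb
    rw [mul_mem_iff_of_index_two hCi]
    exact ⟨fun h => absurd h ha, fun h => absurd h hb⟩
  have hCcomm : ∀ a ∈ C, ∀ b ∈ C, a * b = b * a := by
    intro a ha b hb
    have hc : IsMulCommutative C := IsCyclic.isMulCommutative
    exact congrArg Subtype.val (hc.is_comm.comm ⟨a, ha⟩ ⟨b, hb⟩)
  -- `z` lies in `C`
  have hzC : z ∈ C := by
    have hcardC : Nat.card C * 2 = 2 ^ n := by
      have := C.card_mul_index
      rwa [hCi, hP] at this
    have h2 : 2 ∣ Nat.card C := by
      have h3 : 2 ^ n = 2 ^ (n - 1) * 2 := by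
        rw [← pow_succ]; congr 1; omega
      have h4 : Nat.card C = 2 ^ (n - 1) := by omega
      rw [h4]
      exact dvd_pow_self 2 (by omega)
    obtain ⟨c, hc⟩ := exists_prime_orderOf_dvd_card' 2 h2
    have hcG : orderOf (c : P) = 2 := by rw [← hc]; exact Subgroup.orderOf_coe c
    have hc1 : (c : P) ≠ 1 := by
      intro h; rw [h, orderOf_one] at hcG; omega
    have hcc : (c : P) * c = 1 := by
      rw [← pow_two, ← hcG]; exact pow_orderOf_eq_one _
    have hn' : C.Normal := Subgroup.normal_of_index_eq_two hCi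
    have h5 : ∀ y, y * (c : P) = (c : P) * y := by
      intro y
      have h6 : y * (c : P) * y⁻¹ ∈ C := hn'.conj_mem _ c.2 y
      have h7 : y * (c : P) * y⁻¹ = c := by
        apply eq_of_cyclic hCcyc h6 c.2 _ hc1 _ hcc
        · intro h
          apply hc1
          have : (c : P) = y⁻¹ * (y * (c : P) * y⁻¹) * y := by group
          rw [this, h]; group
        · have : y * (c : P) * y⁻¹ * (y * (c : P) * y⁻¹) = y * ((c : P) * c) * y⁻¹ := by group
          rw [this, hcc]; group
      exact mul_inv_eq_iff_eq_mul.1 h7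
    rcases (hcen c).1 h5 with h | h
    · exact absurd h hc1
    · rw [← h]; exact c.2
  -- elementary abelian subgroups meet `C` in a subgroup of order at most two
  have hVC : ∀ V : Subgroup P, (∀ a ∈ V, a * a = 1) → Nat.card V ≤ 4 := by
    intro V hV
    have h1 : Nat.card ↥(V ⊓ C) ≤ 2 := by
      by_contra hcon
      push Not at hcon
      have : Fintype ↥(V ⊓ C) := Fintype.ofFinite _
      rw [Nat.card_eq_fintype_card, Fintype.two_lt_card_iff] at hcon
      obtain ⟨a, b, c, hab, hac, hbc⟩ := hcon
      have key : ∀ x : ↥(V ⊓ C), ∀ y : ↥(V ⊓ C), x ≠ 1 → y ≠ 1 → x = y := by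
        intro x y hx hy
        apply Subtype.ext
        exact eq_of_cyclic hCcyc (mem_inf.1 x.2).2 (mem_inf.1 y.2).2
          (fun h => hx (Subtype.ext h)) (fun h => hy (Subtype.ext h))
          (hV _ (mem_inf.1 x.2).1) (hV _ (mem_inf.1 y.2).1)
      by_cases ha : a = 1
      · exact hbc (key b c (fun h => hab (ha.trans h.symm)) (fun h => hac (ha.trans h.symm)))
      · by_cases hb : b = 1
        · exact hac (key a c ha (fun h => hbc (hb.trans h.symm)))
        · exact hab (key a b ha hb)
    have h2 : (V ⊓ C).relIndex V ≤ 2 := by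
      rw [inf_relIndex_left]
      calc C.relIndex V ≤ C.relIndex ⊤ := relIndex_le_of_le_right le_top
            (by rw [relIndex_top_right, hCi]; norm_num)
        _ = 2 := by rw [relIndex_top_right, hCi]
    have h3 := card_mul_relIndex (inf_le_left : V ⊓ C ≤ V)
    calc Nat.card V = Nat.card ↥(V ⊓ C) * (V ⊓ C).relIndex V := h3.symm
      _ ≤ 2 * 2 := Nat.mul_le_mul h1 h2
      _ = 4 := by norm_num
  refine ⟨z, hz1, hzz, hcen, ?_, hVC⟩
  intro V hV hVE hzV x hx
  rw [mem_centralizer_iff] at hx
  -- an element of `V` outside `C`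
  obtain ⟨v, hv, hvC⟩ : ∃ v ∈ V, v ∉ C := by
    by_contra hcon
    push Not at hcon
    have h1 : V ≤ zpowers z := by
      intro v hv
      by_cases hv1 : v = 1
      · rw [hv1]; exact one_mem _
      · rw [eq_of_cyclic hCcyc (hcon v hv) hzC hv1 hz1 (hVE v hv) hzz]
        exact mem_zpowers z
    have h2 := Subgroup.card_le_of_le h1
    rw [hV, Nat.card_zpowers] at h2
    have h3 : orderOf z ≤ 2 := orderOf_le_of_pow_eq_one (by norm_num) (by rw [pow_two]; exact hzz)
    omega
  -- an element of `C` commuting with `v` is central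
  have key : ∀ y ∈ C, v * y = y * v → y = 1 ∨ y = z := by
    intro y hy hvy
    rw [← hcen]
    intro g
    by_cases hg : g ∈ C
    · exact hCcomm g hg y hy
    · have h1 : g * v⁻¹ ∈ C := hidx hg (fun h => hvC (inv_mem_iff.1 h))
      have h2 := hCcomm _ h1 y hy
      calc g * y = g * v⁻¹ * (v * y) := by group
        _ = g * v⁻¹ * y * v := by rw [hvy]; group
        _ = y * (g * v⁻¹) * v := by rw [h2]
        _ = y * g := by group
  by_cases hxC : x ∈ C
  · rcases key x hxC (hx v hv) with h | h
    · rw [h]; exact one_mem _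
    · rw [h]; exact hzV
  · have h1 : x * v ∈ C := hidx hxC hvC
    have h2 : v * (x * v) = x * v * v := by rw [← mul_assoc, hx v hv]
    have h3 : x * v ∈ V := by
      rcases key _ h1 h2 with h | h
      · rw [h]; exact one_mem _
      · rw [h]; exact hzV
    have h4 : x = x * v * v⁻¹ := by group
    rw [h4]
    exact mul_mem h3 (inv_mem hv)

variable {G : Type u} [Group G]

theorem good24_cj {U : Subgroup G} (h : Good24 U) (g : G) : Good24 (cj g U) where
  card := by rw [card_cj]; exact h.card
  elem := fun a ha => by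
    have h1 := h.elem _ (mem_cj.1 ha)
    have h2 : a * a = g * (g⁻¹ * a * g * (g⁻¹ * a * g)) * g⁻¹ := by group
    rw [h2, h1]; group
  cent := by
    rw [← cj_centralizer]
    exact cj_mono g h.cent
  norm := by
    rw [← cj_normalizer, card_cj]
    exact h.norm

theorem smul_coe (g : G) (S : Sylow 2 G) : ((g • S : Sylow 2 G) : Subgroup G) = cj g (S : Subgroup G) :=
  rfl

/-- The Sylow 2-subgroups in case `e = 1`. -/
theorem sylow_facts [Finite G] {E : Subgroup G} (hE : Good24 E) (S : Sylow 2 G) :
    8 ≤ Nat.card (S : Subgroup G) ∧ Nat.card (zc (S : Subgroup G)) = 2 ∧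
      (∀ V : Subgroup G, V ≤ (S : Subgroup G) → Nat.card V = 4 → (∀ a ∈ V, a * a = 1) →
        zc (S : Subgroup G) ≤ V → (S : Subgroup G) ⊓ centralizer (V : Set G) ≤ V) ∧
      ∀ V : Subgroup G, V ≤ (S : Subgroup G) → (∀ a ∈ V, a * a = 1) → Nat.card V ≤ 4 := by
  have f2 : Fact (Nat.Prime 2) := ⟨Nat.prime_two⟩
  -- conjugate `E` into `S`
  obtain ⟨S', hS'⟩ := hE.isPGroup.exists_le_sylow
  obtain ⟨g, hg⟩ := MulAction.exists_smul_eq G S' S
  have hES : cj g E ≤ (S : Subgroup G) := by
    rw [← hg, smul_coe]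
    exact cj_mono g hS'
  have hE' := good24_cj hE g
  obtain ⟨n, hn⟩ := S.isPGroup'.exists_card_eq
  have h8 : 8 ∣ Nat.card (S : Subgroup G) := by
    have h1 : 2 ^ 3 ∣ Nat.card G := by
      have h2 : Nat.card (normalizer (E : Set G)) ∣ Nat.card G := Subgroup.card_subgroup_dvd_card _
      rw [hE.norm] at h2
      exact dvd_trans (by norm_num) h2
    have := S.pow_dvd_card_of_pow_dvd_card h1
    simpa using this
  have h8le : 8 ≤ Nat.card (S : Subgroup G) := Nat.le_of_dvd Nat.card_pos h8
  have hn3 : 3 ≤ n := by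
    by_contra h
    have h1 : n ≤ 2 := by omega
    have h2 : 2 ^ n ≤ 2 ^ 2 := Nat.pow_le_pow_right (by norm_num) h1
    rw [hn] at h8le
    omega
  have hcardA : ∀ V : Subgroup G, V ≤ (S : Subgroup G) →
      Nat.card (V.subgroupOf (S : Subgroup G)) = Nat.card V :=
    fun V hV => Nat.card_congr (Subgroup.subgroupOfEquivOfLe hV).toEquiv
  obtain ⟨z, hz1, hzz, hcen, hV4, hVle⟩ := two_group (P := (S : Subgroup G)) n hn3 hn
    ((cj g E).subgroupOf (S : Subgroup G)) (by rw [hcardA _ hES]; exact hE'.card)
    (by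
      intro x hx
      rw [mem_subgroupOf]
      apply hE'.cent
      rw [mem_centralizer_iff] at hx ⊢
      intro y hy
      exact congrArg Subtype.val (hx ⟨y, hES hy⟩ (mem_subgroupOf.2 hy)))
    (fun a ha => Subtype.ext (hE'.elem _ (mem_subgroupOf.1 ha)))
  have hz1' : (z : G) ≠ 1 := fun h => hz1 (Subtype.ext h)
  have hzc : zc (S : Subgroup G) = zpowers (z : G) := by
    ext x
    rw [mem_zc]
    constructor
    · rintro ⟨hx, -, h3⟩
      rcases (hcen ⟨x, hx⟩).1 (fun y => Subtype.ext (h3 y y.2)) with h | h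
      · have : x = 1 := congrArg Subtype.val h
        rw [this]; exact one_mem _
      · have : x = z := congrArg Subtype.val h
        rw [this]; exact mem_zpowers _
    · intro hx
      have hx' : x = 1 ∨ x = z := by
        have h3 : ∀ k : ℤ, (z : G) ^ k = 1 ∨ (z : G) ^ k = z := by
          have hzz' : (z : G) * z = 1 := congrArg Subtype.val hzz
          intro k
          rcases Int.even_or_odd' k with ⟨m, rfl | rfl⟩
          · left
            rw [zpow_mul]
            have : (z : G) ^ (2 : ℤ) = 1 := by rw [zpow_two]; exact hzz'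
            rw [this, one_zpow]
          · right
            rw [zpow_add, zpow_mul]
            have : (z : G) ^ (2 : ℤ) = 1 := by rw [zpow_two]; exact hzz'
            rw [this, one_zpow, one_mul, zpow_one]
        obtain ⟨k, rfl⟩ := mem_zpowers_iff.1 hx
        exact h3 k
      rcases hx' with rfl | rfl
      · exact ⟨one_mem _, one_pow 2, fun y _ => by rw [mul_one, one_mul]⟩
      · refine ⟨z.2, by rw [pow_two]; exact congrArg Subtype.val hzz, fun y hy => ?_⟩
        exact congrArg Subtype.val ((hcen z).2 (Or.inr rfl) ⟨y, hy⟩)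
  have hzord : orderOf (z : G) = 2 :=
    orderOf_eq_prime (by rw [pow_two]; exact congrArg Subtype.val hzz) hz1'
  refine ⟨h8le, by rw [hzc, Nat.card_zpowers, hzord], ?_, ?_⟩
  · intro V hVS hV hVE hzV x hx
    obtain ⟨hxS, hxV⟩ := mem_inf.1 hx
    have h1 := hV4 (V.subgroupOf (S : Subgroup G)) (by rw [hcardA _ hVS]; exact hV)
      (fun a ha => Subtype.ext (hVE _ (mem_subgroupOf.1 ha)))
      (mem_subgroupOf.2 (hzV (by rw [hzc]; exact mem_zpowers _)))
    have h2 : (⟨x, hxS⟩ : (S : Subgroup G)) ∈
        centralizer ((V.subgroupOf (S : Subgroup G) : Subgroup (S : Subgroup G)) : Set _) := by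
      rw [mem_centralizer_iff]
      intro y hy
      exact Subtype.ext ((mem_centralizer_iff.1 hxV) y (mem_subgroupOf.1 hy))
    exact mem_subgroupOf.1 (h1 h2)
  · intro V hVS hVE
    rw [← hcardA V hVS]
    exact hVle _ fun a ha => Subtype.ext (hVE _ (mem_subgroupOf.1 ha))

end Cfsg.Agent.H252.ZNOne
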