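import Cfsg.Agent.H252.ZNCtx

/-!
# ZN-groups: maximal straddling 2-subgroups

Consequences of the lexicographic maximality (`a(T)`, `|J(T)|`, `|T|`) for a member `T` of
`maxStraddlingTwoSubgroups M`.
-/

set_option autoImplicit false

namespace Cfsg.Agent.H252.ZNStar

open Subgroup Cfsg Cfsg.Agent.ZN Cfsg.Agent.ZN.ChoiceBase Cfsg.Agent.ZN.ChoiceSit

universe u

variable {G : Type u} [Group G]

theorem maxElemAbelianOrder_eq [Finite G] (T : Subgroup G) : maxElemAbelianOrder T = mm T := by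
  obtain ⟨A, hA⟩ := AA_nonempty T
  rw [mm_eq hA]
  have h1 := subgroupOf_mem_max hA
  have h2 : (fun A : Subgroup ↥T => Nat.card ↥A) '' maxElementaryAbelianSubgroups 2 ↥T =
      {Nat.card A} := by
    ext n
    constructor
    · rintro ⟨B, hB, rfl⟩
      have h3 := map_mem_AA hB
      have h4 : Nat.card (B.map T.subtype) = Nat.card A := by rw [← mm_eq h3, mm_eq hA]
      have h5 : Nat.card (B.map T.subtype) = Nat.card B :=
        Nat.card_congr (Subgroup.equivMapOfInjective B _ T.subtype_injective).symm.toEquiv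
      rw [Set.mem_singleton_iff, ← h4, h5]
    · rintro rfl
      exact ⟨A.subgroupOf T, h1, Nat.card_congr (Subgroup.subgroupOfEquivOfLe hA.2.1).toEquiv⟩
  rw [maxElemAbelianOrder, h2, csSup_singleton]

/-- A member of `maxStraddlingTwoSubgroups M` is maximal in `straddlingTwoSubgroups M`. -/
theorem eq_of_le [Finite G] {M T T₁ : Subgroup G} (hT : T ∈ maxStraddlingTwoSubgroups M)
    (h : T ≤ T₁) (h1 : T₁ ∈ straddlingTwoSubgroups M) : T = T₁ := by
  obtain ⟨h2, h3⟩ := hT.2 T₁ h1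
  rw [maxElemAbelianOrder_eq, maxElemAbelianOrder_eq] at h2 h3
  have h4 : mm T₁ = mm T := le_antisymm h2 (mm_mono h)
  obtain ⟨h5, h6⟩ := h3 h4
  have h7 : jj T ≤ jj T₁ := jj_mono h h4.le
  have h8 : Nat.card (jj T₁) = Nat.card (jj T) := le_antisymm h5 (Subgroup.card_le_of_le h7)
  exact Subgroup.eq_of_le_of_card_ge h (h6 h8)

/-- (t2) `N_G(J(T)) ≤ M`. -/
theorem normalizer_jj_le [Finite G] {M T : Subgroup G} (S : Sylow 2 G)
    (hMJ : normalizer ((jj (S : Subgroup G) : Subgroup G) : Set G) ≤ M)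
    (hT : T ∈ maxStraddlingTwoSubgroups M) :
    normalizer ((jj T : Subgroup G) : Set G) ≤ M := by
  obtain ⟨hTp, hT1, hTM, -⟩ := hT.1
  have hSM : (S : Subgroup G) ≤ M :=
    (le_normalizer.trans (normalizer_le_jj (S : Subgroup G))).trans hMJ
  obtain ⟨S₁, hS₁, hTS⟩ := exists_syl hTp hTM
  by_cases hne : T = S₁
  · obtain ⟨m, hm, hmS⟩ := syl_conj (CaseTwo.syl_of_sylow S hSM) hS₁
    rw [hne, ← hmS, jj_cj, ← cj_normalizer]
    calc cj m (normalizer ((jj (S : Subgroup G) : Subgroup G) : Set G)) ≤ cj m M := cj_mono m hMJ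
      _ = M := cj_eq_of_mem_normalizer (le_normalizer hm)
  · obtain ⟨x, hx1, hx2, hx3⟩ := CaseTwo.exists_normalizing hS₁.2.1 hTS hne
    by_contra hcon
    apply hx2
    have hle : T ⊔ zpowers x ≤ S₁ := sup_le hTS (by rwa [zpowers_le])
    have h1 : T ⊔ zpowers x ∈ straddlingTwoSubgroups M := by
      refine ⟨hS₁.2.1.to_le hle, fun h0 => hT1 (le_bot_iff.1 (le_sup_left.trans h0.le)),
        hle.trans hS₁.1, _, ⟨jj T, hTp.to_le (jj_le T), CaseTwo.jj_ne_bot hTp hT1, rfl⟩, ?_, hcon⟩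
      refine sup_le (le_normalizer.trans (normalizer_le_jj T)) ?_
      rw [zpowers_le]
      exact normalizer_le_jj T hx3
    rw [eq_of_le hT le_sup_left h1]
    exact le_sup_right (a := T) (mem_zpowers x)

/-- (t3) `T` is a Sylow 2-subgroup of every 2-local subgroup containing it and not contained
in `M`. -/
theorem syl_of_not_le [Finite G] {M T : Subgroup G}
    (hTJ : normalizer ((jj T : Subgroup G) : Set G) ≤ M)
    (hT : T ∈ maxStraddlingTwoSubgroups M) {X : Subgroup G} (hX : IsTwoLocal X) (hTX : T ≤ X)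
    (hXM : ¬ X ≤ M) : Syl T X := by
  obtain ⟨hTp, hT1, hTM, -⟩ := hT.1
  obtain ⟨T₀, hT₀, hTT⟩ := exists_syl hTp (le_inf hTX hTM)
  have h0 : T = T₀ := eq_of_le hT hTT ⟨hT₀.2.1, fun h => hT1 (le_bot_iff.1 (hTT.trans h.le)),
    hT₀.1.trans inf_le_right, X, hX, hT₀.1.trans inf_le_left, hXM⟩
  subst h0
  refine ⟨hTX, hTp, fun Q hQX hQ hTQ => ?_⟩
  by_contra hne
  obtain ⟨y, hy1, hy2, hy3⟩ := CaseTwo.exists_normalizing hQ hTQ (Ne.symm hne)
  apply hy2
  have hyM : y ∈ M := hTJ (normalizer_le_jj T hy3)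
  have h1 : T ⊔ zpowers y = T := by
    apply hT₀.2.2
    · refine sup_le (le_inf hTX hTM) ?_
      rw [zpowers_le]
      exact ⟨hQX hy1, hyM⟩
    · exact hQ.to_le (sup_le hTQ (by rwa [zpowers_le]))
    · exact le_sup_left
  rw [← h1]
  exact le_sup_right (a := T) (mem_zpowers y)

/-- (Z) a 2-local subgroup with Sylow 2-subgroup `T`, not contained in `M ≥ N_G(J(T))`, does not
normalize `Ω₁Z(T)`. -/
theorem not_le_normalizer_zc [Finite G] (hL : IsCharacteristicTwoType G)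
    (hZ : ∀ S : Sylow 2 G, centralizer (zc (S : Subgroup G) : Set G) ≤
      normalizer ((S : Subgroup G) : Set G))
    {M T X : Subgroup G} (hTJ : normalizer ((jj T : Subgroup G) : Set G) ≤ M)
    (hX : IsTwoLocal X) (hTX : Syl T X) (hXM : ¬ X ≤ M) :
    ¬ X ≤ normalizer ((zc T : Subgroup G) : Set G) := by
  intro hXn
  apply hXM
  refine le_trans ?_ ((normalizer_le_jj T).trans hTJ)
  have hK : X ⊓ centralizer (zc T : Set G) ≤ normalizer (T : Set G) := cent_zc_le hL hZ hX hTX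
  have hTK : T ≤ X ⊓ centralizer (zc T : Set G) := by
    refine le_inf hTX.1 fun t ht => ?_
    rw [mem_centralizer_iff]
    exact fun y hy => ((mem_zc.1 hy).2.2 t ht).symm
  intro g hg
  apply mem_normalizer_of_cj_le
  have h1 : cj g T ≤ X ⊓ centralizer (zc T : Set G) := by
    have h2 := cj_mono g hTK
    rwa [cj_inf, cj_centralizer, cj_eq_of_mem_normalizer (le_normalizer hg),
      cj_eq_of_mem_normalizer (hXn hg)] at h2
  have h2 : IsPGroup 2 ↥(cj g T ⊔ T) :=
    IsPGroup.to_sup_of_normal_right' (hTX.2.1.map _) hTX.2.1 (h1.trans hK)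
  have h3 := hTX.2.2 (cj g T ⊔ T) (sup_le (h1.trans inf_le_left) hTX.1) h2 le_sup_right
  exact le_sup_left.trans h3.le

/-- `Ω₁Z(T) ≤ Ω₁Z(O₂(X))` for `T` Sylow in the 2-local `X`. -/
theorem zc_le_zc_o2 [Finite G] (hL : IsCharacteristicTwoType G) {T X : Subgroup G}
    (hX : IsTwoLocal X) (hTX : Syl T X) : zc T ≤ zc (o2 X) := by
  intro x hx
  have hx' := mem_zc.1 hx
  have h1 : o2 X ≤ T := o2_le_syl hTX
  rw [mem_zc]
  refine ⟨self_cent hL hX (mem_inf.2 ⟨hTX.1 hx'.1, ?_⟩), hx'.2.1, fun y hy => hx'.2.2 y (h1 hy)⟩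
  rw [mem_centralizer_iff]
  exact fun y hy => hx'.2.2 y (h1 hy)

/-- `X` normalizes `Ω₁Z(O₂(X))`. -/
theorem le_normalizer_zc_o2 (X : Subgroup G) :
    X ≤ normalizer ((zc (o2 X) : Subgroup G) : Set G) := by
  intro g hg
  rw [mem_normalizer_iff]
  intro x
  refine ⟨fun hx => FinalBridge.zc_conj (le_normalizer_o2 X hg) hx, fun hx => ?_⟩
  have h1 := FinalBridge.zc_conj (inv_mem (le_normalizer_o2 X hg)) hx
  have h2 : g⁻¹ * (g * x * g⁻¹) * g⁻¹⁻¹ = x := by group
  rwa [h2] at h1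

/-- In a group of characteristic 2 type `C_G(O₂(X)) ≤ O₂(X)` for 2-local `X`. -/
theorem centralizer_o2_le [Finite G] (hL : IsCharacteristicTwoType G) {X : Subgroup G}
    (hX : IsTwoLocal X) : centralizer ((o2 X : Subgroup G) : Set G) ≤ o2 X := by
  have h1 := self_cent hL hX
  refine le_trans (le_inf ?_ le_rfl) h1
  obtain ⟨U, hU, hne, rfl⟩ := hX
  have hUX : U ≤ o2 (normalizer (U : Set G)) := le_o2 hU le_normalizer le_rfl
  exact (centralizer_le hUX).trans (centralizer_le_normalizer _)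

/-- `Ω₁Z(T)` is properly contained in `Ω₁Z(O₂(X))`. -/
theorem zc_lt [Finite G] (hL : IsCharacteristicTwoType G)
    (hZ : ∀ S : Sylow 2 G, centralizer (zc (S : Subgroup G) : Set G) ≤
      normalizer ((S : Subgroup G) : Set G))
    {M T X : Subgroup G} (hTJ : normalizer ((jj T : Subgroup G) : Set G) ≤ M)
    (hX : IsTwoLocal X) (hTX : Syl T X) (hXM : ¬ X ≤ M) : zc T < zc (o2 X) := by
  refine lt_of_le_of_ne (zc_le_zc_o2 hL hX hTX) fun h => ?_
  apply not_le_normalizer_zc hL hZ hTJ hX hTX hXM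
  rw [h]
  exact le_normalizer_zc_o2 X

end Cfsg.Agent.H252.ZNStar
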