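import Cfsg.Agent.H252.ZNOne

/-!
# ZN-groups: structure of the maximal straddling 2-subgroups

**Main theorem** `exists_ts`. Let `G` be a finite group of characteristic 2 type in which every 2-local subgroup is
solvable and `C_G(Ω₁Z(S)) ≤ N_G(S)` for the Sylow 2-subgroups `S`, `O₂(G) = 1`, `M` a 2-local subgroup containing
`N_G(J(S))` and `T ∈ maxStraddlingTwoSubgroups M`. Then `T = U₁U₂`, `Uᵢ` self-centralizing elementary abelian of order
`4e` (`e = 1, 2`), `|T| = 8e`, `|N_G(Uᵢ)| = 24e`, the `N_G(Uᵢ)` are maximal 2-local, and they are the only 2-local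
subgroups containing `T` and not contained in `M` (apart from one of them possibly lying in `M`).
-/

set_option autoImplicit false

namespace Cfsg.Agent.H252.ZNStruct

open Subgroup Cfsg Cfsg.Agent.ZN Cfsg.Agent.ZN.ChoiceBase Cfsg.Agent.ZN.ChoiceSit
open Cfsg.Agent.Classification.ZNEndA Cfsg.Agent.Classification.ZNEndB
open Cfsg.Agent.H252.ZNCross Cfsg.Agent.H252.ZNData Cfsg.Agent.H252.ZNStar Cfsg.Agent.H252.ZNOne

universe u

variable {G : Type u} [Group G]

/-- The structure of a maximal straddling 2-subgroup `T` of `M`. -/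
structure TS (e : ℕ) (M T U₁ U₂ : Subgroup G) : Prop where
  dat : Dat e T U₁ U₂
  all : ∀ X : Subgroup G, IsTwoLocal X → T ≤ X → ¬ X ≤ M →
    X = normalizer (U₁ : Set G) ∨ X = normalizer (U₂ : Set G)

theorem TS.symm {e : ℕ} {M T U₁ U₂ : Subgroup G} (h : TS e M T U₁ U₂) : TS e M T U₂ U₁ :=
  ⟨h.dat.symm, fun X h1 h2 h3 => (h.all X h1 h2 h3).symm⟩

theorem elem_zc (B : Subgroup G) : ∀ a ∈ zc B, a * a = 1 := fun a ha => by
  rw [← pow_two]; exact (mem_zc.1 ha).2.1

theorem two_le_card [Finite G] {U : Subgroup G} (hU : IsPGroup 2 U) (hU1 : U ≠ ⊥) :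
    2 ≤ Nat.card U :=
  Nat.le_of_dvd Nat.card_pos (ZNCtx.two_dvd_card hU hU1)

/-! ### `e = 1` -/

section One

variable [Finite G] (hL : IsCharacteristicTwoType G)
  (hZ : ∀ S : Sylow 2 G, centralizer (zc (S : Subgroup G) : Set G) ≤
      normalizer ((S : Subgroup G) : Set G))

include hL hZ

theorem key_one {M T E : Subgroup G} (hE : Good24 E)
    (hTJ : normalizer ((jj T : Subgroup G) : Set G) ≤ M)
    (hT : T ∈ maxStraddlingTwoSubgroups M) (S' : Sylow 2 G) (hTS : T ≤ (S' : Subgroup G))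
    {X : Subgroup G} (hX : IsTwoLocal X) (hTX : T ≤ X) (hXM : ¬ X ≤ M) :
    Good24 (o2 X) ∧ o2 X ≤ T ∧ X = normalizer ((o2 X : Subgroup G) : Set G) ∧ Nat.card T = 8 ∧
      normalizer ((o2 X : Subgroup G) : Set G) ⊓ (S' : Subgroup G) = T := by
  have f2 : Fact (Nat.Prime 2) := ⟨Nat.prime_two⟩
  obtain ⟨hTp, hT1, hTM, -⟩ := hT.1
  obtain ⟨hS8, hzS, hself, hrank⟩ := sylow_facts hE S'
  have hsyl : Syl T X := syl_of_not_le hTJ hT hX hTX hXM
  have hlt : zc T < zc (o2 X) := zc_lt hL hZ hTJ hX hsyl hXM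
  have hoT : o2 X ≤ T := o2_le_syl hsyl
  have hVo : zc (o2 X) ≤ o2 X := ChoiceSit.zc_le _
  have hVS : zc (o2 X) ≤ (S' : Subgroup G) := hVo.trans (hoT.trans hTS)
  have hVE := elem_zc (o2 X)
  have hV4 : Nat.card (zc (o2 X)) = 4 := by
    have h1 := hrank _ hVS hVE
    have h2 : 2 ≤ Nat.card (zc T) :=
      two_le_card (hTp.to_le (ChoiceSit.zc_le T)) (zc_ne_bot hTp hT1)
    have h3 : Nat.card (zc T) < Nat.card (zc (o2 X)) := by
      refine lt_of_le_of_ne (Subgroup.card_le_of_le hlt.le) fun h => hlt.ne ?_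
      exact Subgroup.eq_of_le_of_card_ge hlt.le h.ge
    have h4 : Nat.card (zc (o2 X)) ≠ 3 := by
      intro h5
      obtain ⟨n, hn⟩ := (isPGroup_of_elem hVE).exists_card_eq
      rw [h5] at hn
      have h6 : 2 ∣ 3 := by
        rw [hn]
        apply dvd_pow_self
        rintro rfl
        norm_num at hn
      norm_num at h6
    omega
  have hzSV : zc (S' : Subgroup G) ≤ zc (o2 X) := by
    refine le_trans ?_ hlt.le
    intro x hx
    have hx' := mem_zc.1 hx
    exact mem_zc.2 ⟨zc_le_syl hL hX hsyl hTS hx, hx'.2.1, fun y hy => hx'.2.2 y (hTS hy)⟩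
  have ho : o2 X = zc (o2 X) := by
    apply le_antisymm ?_ hVo
    refine le_trans (le_inf (hoT.trans hTS) ?_) (hself _ hVS hV4 hVE hzSV)
    intro x hx
    rw [mem_centralizer_iff]
    exact fun y hy => ((mem_zc.1 hy).2.2 x hx).symm
  have hVE' : ∀ a ∈ o2 X, a * a = 1 := by
    intro a ha
    rw [ho] at ha
    exact hVE a ha
  have hV4' : Nat.card (o2 X) = 4 := by rw [ho]; exact hV4
  have hcent : centralizer ((o2 X : Subgroup G) : Set G) ≤ o2 X := centralizer_o2_le hL hX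
  have hne : o2 X ≠ ⊥ := by
    intro h0
    rw [h0, Subgroup.card_bot] at hV4'
    norm_num at hV4'
  have hXN : X ≤ normalizer ((o2 X : Subgroup G) : Set G) := ChoiceSit.le_normalizer_o2 X
  have hNM : ¬ normalizer ((o2 X : Subgroup G) : Set G) ≤ M := fun h => hXM (hXN.trans h)
  have hN2 : IsTwoLocal (normalizer ((o2 X : Subgroup G) : Set G)) :=
    ⟨o2 X, isPGroup_of_elem hVE', hne, rfl⟩
  have hsylN : Syl T (normalizer ((o2 X : Subgroup G) : Set G)) :=
    syl_of_not_le hTJ hT hN2 (hTX.trans hXN) hNM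
  have hle24 : Nat.card (normalizer ((o2 X : Subgroup G) : Set G)) ≤ 24 := by
    have := FinalBridge.card_le_of_acts (X := normalizer ((o2 X : Subgroup G) : Set G))
      (V := o2 X) (U := o2 X) hV4' (fun x hx v hv => ((mem_normalizer_iff.1 hx) v).1 hv)
      (fun x _ hv => hcent (mem_centralizer_iff.2 fun v hv' => (hv v hv').symm))
    rw [hV4'] at this
    exact this
  have hNS : normalizer ((o2 X : Subgroup G) : Set G) ⊓ (S' : Subgroup G) = T :=
    hsylN.2.2 _ inf_le_left (S'.isPGroup'.to_le inf_le_right) (le_inf hsylN.1 hTS)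
  have hVT : ¬ T ≤ o2 X := by
    intro h
    have h1 : o2 X = (S' : Subgroup G) := by
      apply ChoiceNse.eq_of_normalizer_inf_le S'.isPGroup' (hoT.trans hTS)
      rw [hNS]; exact h
    rw [← h1, hV4'] at hS8
    norm_num at hS8
  have hT8 : 8 ≤ Nat.card T := by
    have h1 := card_mul_relIndex hoT
    rw [hV4'] at h1
    have h2 : (o2 X).relIndex T ≠ 1 := by rw [Ne, relIndex_eq_one]; exact hVT
    have h3 : (o2 X).relIndex T ≠ 0 := index_ne_zero_of_finite (H := (o2 X).subgroupOf T)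
    omega
  have hXT : ¬ X ≤ T := fun h => hXM (h.trans hTM)
  have hX24 : 24 ≤ Nat.card X ∧ Nat.card T * 3 ≤ Nat.card X := by
    have h1 := card_mul_relIndex hTX
    have h2 : T.relIndex X ≠ 1 := by rw [Ne, relIndex_eq_one]; exact hXT
    have h3 : T.relIndex X ≠ 0 := index_ne_zero_of_finite (H := T.subgroupOf X)
    have h4 := syl_not_dvd hsyl
    have h5 : 3 ≤ T.relIndex X := by omega
    constructor
    · calc 24 = 8 * 3 := by norm_num
        _ ≤ Nat.card T * T.relIndex X := Nat.mul_le_mul hT8 h5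
        _ = Nat.card X := h1
    · calc Nat.card T * 3 ≤ Nat.card T * T.relIndex X := Nat.mul_le_mul_left _ h5
        _ = Nat.card X := h1
  have hXcard := Subgroup.card_le_of_le hXN
  have hN24 : Nat.card (normalizer ((o2 X : Subgroup G) : Set G)) = 24 := by omega
  exact ⟨⟨hV4', hVE', hcent, hN24⟩, hoT, Subgroup.eq_of_le_of_card_ge hXN (by omega), by omega, hNS⟩

theorem one {M T B E₁ E₂ : Subgroup G} (hD : Dat 1 B E₁ E₂)
    (hTJ : normalizer ((jj T : Subgroup G) : Set G) ≤ M)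
    (hT : T ∈ maxStraddlingTwoSubgroups M) :
    ∃ V₁ V₂ : Subgroup G, TS 1 M T V₁ V₂ := by
  have f2 : Fact (Nat.Prime 2) := ⟨Nat.prime_two⟩
  obtain ⟨hTp, hT1, hTM, X₀, hX₀, hTX₀, hX₀M⟩ := hT.1
  obtain ⟨S', hTS⟩ := hTp.exists_le_sylow
  have key : ∀ X : Subgroup G, IsTwoLocal X → T ≤ X → ¬ X ≤ M →
      Good24 (o2 X) ∧ o2 X ≤ T ∧ X = normalizer ((o2 X : Subgroup G) : Set G) ∧ Nat.card T = 8 ∧
      normalizer ((o2 X : Subgroup G) : Set G) ⊓ (S' : Subgroup G) = T :=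
    fun X h1 h2 h3 => key_one hL hZ hD.good24 hTJ hT S' hTS h1 h2 h3
  obtain ⟨hV, hVT, hXV, hT8, hNS⟩ := key X₀ hX₀ hTX₀ hX₀M
  obtain ⟨V, hVdef⟩ : ∃ V, V = o2 X₀ := ⟨_, rfl⟩
  rw [← hVdef] at hV hVT hXV hNS
  -- the second four-group
  obtain ⟨V', hV', hVT', hne⟩ : ∃ V' : Subgroup G, Good24 V' ∧ V' ≤ T ∧ V ≠ V' := by
    by_cases hTS' : T = (S' : Subgroup G)
    · obtain ⟨S'', hS''⟩ := hD.cross.two.exists_le_sylow
      obtain ⟨g, hg⟩ := MulAction.exists_smul_eq G S'' S'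
      have h1 : cj g (S'' : Subgroup G) = (S' : Subgroup G) := by rw [← hg]; rfl
      have h2 : B = (S'' : Subgroup G) := by
        apply Subgroup.eq_of_le_of_card_ge hS''
        rw [← card_cj g (S'' : Subgroup G), h1, ← hTS', hT8, hD.cross.cardT]
      have h3 : cj g B = T := by rw [h2, h1, ← hTS']
      have h4 := hD.cj g
      by_cases h5 : V = cj g E₁
      · refine ⟨cj g E₂, h4.good24', h3 ▸ h4.cross.le₂, ?_⟩
        rw [h5]; exact h4.cross.ne
      · exact ⟨cj g E₁, h4.good24, h3 ▸ h4.cross.le₁, h5⟩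
    · obtain ⟨x, hx1, hx2, hx3⟩ := CaseTwo.exists_normalizing S'.isPGroup' hTS hTS'
      refine ⟨cj x V, good24_cj hV x, ?_, ?_⟩
      · calc cj x V ≤ cj x T := cj_mono x hVT
          _ = T := cj_eq_of_mem_normalizer hx3
      · intro h
        apply hx2
        rw [← hNS]
        exact mem_inf.2 ⟨mem_normalizer_iff_cj.2 h.symm, hx1⟩
  have hcross : Cross 1 T V V' :=
    ⟨by norm_num, hTp, by rw [hT8], hVT, hVT', hne, hV.card, hV'.card, hV.elem, hV'.elem, hV.cent,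
      hV'.cent⟩
  refine ⟨V, V', ⟨⟨Or.inl rfl, hcross, hV.norm, hV'.norm, hV.isMaximalTwoLocal,
    hV'.isMaximalTwoLocal, fun h => by norm_num at h⟩, ?_⟩⟩
  intro X hX hTX hXM
  obtain ⟨h1, h2, h3, -, -⟩ := key X hX hTX hXM
  rcases hcross.eq_or_of_card h2 h1.elem (by rw [h1.card]) with h4 | h4
  · left; rw [h3, h4]
  · right; rw [h3, h4]

end One

/-! ### `e = 2` -/

section Two

variable [Finite G]

/-- The Sylow 2-subgroups containing `B` in case `e = 2`. -/
theorem two_sylow {B U₁ U₂ : Subgroup G} (h : Dat 2 B U₁ U₂) (S : Sylow 2 G)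
    (hB : B ≤ (S : Subgroup G)) :
    jj (S : Subgroup G) = B ∧ normalizer (B : Set G) = (S : Subgroup G) := by
  have f2 : Fact (Nat.Prime 2) := ⟨Nat.prime_two⟩
  obtain ⟨S₂, hS₂⟩ : ∃ S₂ : Subgroup G, S₂ = normalizer (B : Set G) ⊓ (S : Subgroup G) := ⟨_, rfl⟩
  have hBS₂ : B ≤ S₂ := by rw [hS₂]; exact le_inf le_normalizer hB
  have hS₂N : S₂ ≤ normalizer (B : Set G) := by rw [hS₂]; exact inf_le_left
  have hS₂S : S₂ ≤ (S : Subgroup G) := by rw [hS₂]; exact inf_le_right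
  -- large elementary abelian subgroups of `S₂` lie in `B`
  have key : ∀ W : Subgroup G, W ≤ S₂ → (∀ a ∈ W, a * a = 1) → 8 ≤ Nat.card W → W ≤ B := by
    intro W hWS hWE hW8
    by_contra hcon
    obtain ⟨w, hw, hwB⟩ := Set.not_subset.1 hcon
    have hwN : w ∈ normalizer (B : Set G) := hS₂N (hWS hw)
    obtain ⟨hsw1, hsw2⟩ := h.swap_of_not_mem hwN hwB
    have hcommW : ∀ y ∈ W, w * y * w⁻¹ = y := by
      intro y hy
      rw [comm_of_elem hWE hw hy]; group
    have h1 : W ⊓ B ≤ U₁ ⊓ U₂ := by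
      intro y hy
      obtain ⟨hyW, hyB⟩ := mem_inf.1 hy
      rcases h.cross.mem_or_of_sq hyB (hWE y hyW) with h2 | h2
      · refine mem_inf.2 ⟨h2, ?_⟩
        have h3 : w * y * w⁻¹ ∈ ChoiceBase.cj w U₁ := ⟨y, h2, rfl⟩
        rwa [hsw1, hcommW y hyW] at h3
      · refine mem_inf.2 ⟨?_, h2⟩
        have h3 : w * y * w⁻¹ ∈ ChoiceBase.cj w U₂ := ⟨y, h2, rfl⟩
        rwa [hsw2, hcommW y hyW] at h3
    have h2 : B.relIndex W = 2 := by
      show (B.subgroupOf W).index = 2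
      rw [Subgroup.index_eq_two_iff]
      refine ⟨⟨w, hw⟩, fun b => ?_⟩
      rw [mem_subgroupOf, mem_subgroupOf]
      by_cases hb : (b : G) ∈ B
      · right
        refine ⟨hb, fun h3 => hwB ?_⟩
        have h4 : w = (b : G)⁻¹ * ((b : G) * w) := by group
        rw [h4]
        exact mul_mem (inv_mem hb) h3
      · left
        refine ⟨?_, hb⟩
        show (b : G) * w ∈ B
        rw [← h.normalizer_inf]
        have hbN : (b : G) ∈ normalizer (B : Set G) := hS₂N (hWS b.2)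
        refine mem_inf.2 ⟨mul_mem hbN hwN, ?_⟩
        rw [mem_normalizer_iff_cj, ← cj_cj, hsw1, (h.swap_of_not_mem hbN hb).2]
    have h3 : Nat.card ↥(W ⊓ B) * 2 = Nat.card W := by
      have := card_mul_relIndex (inf_le_left : W ⊓ B ≤ W)
      rwa [inf_relIndex_left, h2] at this
    have h4 : W ⊓ B = U₁ ⊓ U₂ := by
      apply Subgroup.eq_of_le_of_card_ge h1
      rw [h.cross.card_inf]
      omega
    apply hwB
    rw [← h.centralizer_inf]
    refine mem_centralizer_iff.2 fun y hy => ?_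
    rw [← h4] at hy
    exact comm_of_elem hWE (mem_inf.1 hy).1 hw
  have hjj : jj S₂ = B := by
    rw [ChoiceBase.jj_eq]
    apply le_antisymm
    · refine sSup_le fun W hW => ?_
      have h1 := hW.2.2 U₁ (isElem_of h.cross.elem₁) (h.cross.le₁.trans hBS₂)
      rw [h.cross.card₁] at h1
      exact key W hW.2.1 (sq_of_isElem hW.1) h1
    · have hmem : ∀ U : Subgroup G, (U = U₁ ∨ U = U₂) → U ∈ AA S₂ := by
        intro U hU
        have hUc : Nat.card U = 8 ∧ (∀ a ∈ U, a * a = 1) ∧ U ≤ B := by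
          rcases hU with rfl | rfl
          · exact ⟨h.cross.card₁, h.cross.elem₁, h.cross.le₁⟩
          · exact ⟨h.cross.card₂, h.cross.elem₂, h.cross.le₂⟩
        refine ⟨isElem_of hUc.2.1, hUc.2.2.trans hBS₂, fun W hW hWS => ?_⟩
        by_contra hcon
        push Not at hcon
        rw [hUc.1] at hcon
        have h1 := key W hWS (sq_of_isElem hW) hcon.le
        rcases h.cross.elem_le_or h1 (sq_of_isElem hW) with h2 | h2
        · have := Subgroup.card_le_of_le h2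
          rw [h.cross.card₁] at this
          omega
        · have := Subgroup.card_le_of_le h2
          rw [h.cross.card₂] at this
          omega
      rw [← h.cross.sup_eq]
      exact sup_le (le_sSup (hmem U₁ (Or.inl rfl))) (le_sSup (hmem U₂ (Or.inr rfl)))
  have hS₂eq : S₂ = (S : Subgroup G) := by
    apply ChoiceNse.eq_of_normalizer_inf_le S.isPGroup' hS₂S
    conv_rhs => rw [hS₂]
    refine le_inf (inf_le_left.trans ?_) inf_le_right
    have := normalizer_le_jj S₂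
    rwa [hjj] at this
  refine ⟨by rw [← hS₂eq]; exact hjj, ?_⟩
  have h1 : (S : Subgroup G) ≤ normalizer (B : Set G) := hS₂eq ▸ hS₂N
  exact S.is_maximal' h.isPGroup_normalizer h1

variable (hL : IsCharacteristicTwoType G)
  (hZ : ∀ S : Sylow 2 G, centralizer (zc (S : Subgroup G) : Set G) ≤
      normalizer ((S : Subgroup G) : Set G))

include hL hZ

theorem two {M T B U₁ U₂ : Subgroup G} (S : Sylow 2 G) (hM : IsTwoLocal M) (hD : Dat 2 B U₁ U₂)
    (hMJ : normalizer ((jj (S : Subgroup G) : Subgroup G) : Set G) ≤ M)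
    (hT : T ∈ maxStraddlingTwoSubgroups M) :
    ∃ V₁ V₂ : Subgroup G, TS 2 M T V₁ V₂ := by
  have f2 : Fact (Nat.Prime 2) := ⟨Nat.prime_two⟩
  have hTJ : normalizer ((jj T : Subgroup G) : Set G) ≤ M := normalizer_jj_le S hMJ hT
  obtain ⟨hTp, hT1, hTM, X₀, hX₀, hTX₀, hX₀M⟩ := hT.1
  have hSM : (S : Subgroup G) ≤ M :=
    (le_normalizer.trans (normalizer_le_jj (S : Subgroup G))).trans hMJ
  obtain ⟨S₁, hS₁, hTS₁⟩ := exists_syl hTp hTM
  obtain ⟨m, hm, hmS⟩ := syl_conj (CaseTwo.syl_of_sylow S hSM) hS₁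
  -- `S₁` as a Sylow subgroup of `G`, and a conjugate of `B` in it
  obtain ⟨P, hP⟩ : ∃ P : Sylow 2 G, (P : Subgroup G) = S₁ := ⟨m • S, hmS⟩
  obtain ⟨S'', hS''⟩ := hD.cross.two.exists_le_sylow
  obtain ⟨g, hg⟩ := MulAction.exists_smul_eq G S'' P
  have hgS : cj g (S'' : Subgroup G) = (P : Subgroup G) := by rw [← hg]; rfl
  have hD' := hD.cj g
  obtain ⟨B', hB'⟩ : ∃ B', B' = cj g B := ⟨_, rfl⟩
  obtain ⟨V₁, hV₁⟩ : ∃ V₁, V₁ = cj g U₁ := ⟨_, rfl⟩
  obtain ⟨V₂, hV₂⟩ : ∃ V₂, V₂ = cj g U₂ := ⟨_, rfl⟩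
  rw [← hB', ← hV₁, ← hV₂] at hD'
  have hB'P : B' ≤ (P : Subgroup G) := by
    rw [hB', ← hgS]
    exact cj_mono g hS''
  obtain ⟨hjP, hNP⟩ := two_sylow hD' P hB'P
  have hPM : (P : Subgroup G) ≤ M := by rw [hP]; exact hS₁.1
  have hTP : T ≤ (P : Subgroup G) := by rw [hP]; exact hTS₁
  have hNM : ¬ normalizer (V₁ : Set G) ≤ M ∨ ¬ normalizer (V₂ : Set G) ≤ M := by
    by_contra hcon
    push Not at hcon
    have h1 := hD'.max₁.2 M hM hcon.1
    have h2 := hD'.max₂.2 M hM hcon.2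
    exact hD'.normalizer_ne (h1.symm.trans h2)
  have hB'1 : B' ≠ ⊥ := by
    intro h0
    have := hD'.cross.cardT
    rw [h0, Subgroup.card_bot] at this
    norm_num at this
  have hB'str : B' ∈ straddlingTwoSubgroups M := by
    refine ⟨hD'.cross.two, hB'1, hB'P.trans hPM, ?_⟩
    rcases hNM with h1 | h1
    · exact ⟨_, hD'.max₁.1, hD'.cross.norm₁, h1⟩
    · exact ⟨_, hD'.max₂.1, hD'.cross.norm₂, h1⟩
  obtain ⟨h1, h2⟩ := hT.2 B' hB'str
  rw [maxElemAbelianOrder_eq, maxElemAbelianOrder_eq] at h1 h2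
  have h3 : mm B' = mm (P : Subgroup G) := mm_eq_of_jj_le hjP.le hB'P
  have h4 : mm T ≤ mm B' := by rw [h3]; exact mm_mono hTP
  have h5 : mm B' = mm T := le_antisymm h1 h4
  obtain ⟨h6, -⟩ := h2 h5
  have h7 : jj T ≤ B' := by
    rw [← hjP]
    exact jj_mono hTP (by rw [← h3, h5])
  have h8 : jj T = B' := by
    apply Subgroup.eq_of_le_of_card_ge h7
    have h9 : thompsonSubgroupOf 2 B' = B' := hD'.cross.jj_eq
    rwa [h9] at h6
  have hB'T : B' ≤ T := by rw [← h8]; exact jj_le T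
  have hTN : T ≤ normalizer (B' : Set G) := by rw [hNP]; exact hTP
  -- `T = B'`
  have hTB : T = B' := by
    by_contra hne
    obtain ⟨t, ht, htB⟩ : ∃ t ∈ T, t ∉ B' := by
      by_contra hcon
      push Not at hcon
      exact hne (le_antisymm hcon hB'T)
    have hsyl : Syl T X₀ := syl_of_not_le hTJ hT hX₀ hTX₀ hX₀M
    have hlt : zc T < zc (o2 X₀) := zc_lt hL hZ hTJ hX₀ hsyl hX₀M
    have hoT : o2 X₀ ≤ T := o2_le_syl hsyl
    have hVo : zc (o2 X₀) ≤ o2 X₀ := ChoiceSit.zc_le _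
    have hVE := elem_zc (o2 X₀)
    have hXV := le_normalizer_zc_o2 X₀
    obtain ⟨V, hVdef⟩ : ∃ V, V = zc (o2 X₀) := ⟨_, rfl⟩
    rw [← hVdef] at hlt hVo hVE hXV
    have hVT : V ≤ T := hVo.trans hoT
    have hVB : V ≤ B' := by
      by_contra hcon
      obtain ⟨v, hv, hvB⟩ := Set.not_subset.1 hcon
      obtain ⟨hsw1, hsw2⟩ := hD'.swap_of_not_mem (hTN (hVT hv)) hvB
      apply hD'.cross.not_le'
      rw [← hsw1]
      rintro _ ⟨f, hf, rfl⟩
      show v * f * v⁻¹ ∈ V₁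
      have hfB : f ∈ B' := hD'.cross.le₁ hf
      have hc1 : v * f * v⁻¹ * f⁻¹ ∈ V := by
        have h10 : f * v⁻¹ * f⁻¹ ∈ V :=
          ((mem_normalizer_iff.1 (hXV (hTX₀ (hB'T hfB)))) _).1 (inv_mem hv)
        have h11 : v * f * v⁻¹ * f⁻¹ = v * (f * v⁻¹ * f⁻¹) := by group
        rw [h11]
        exact mul_mem hv h10
      have hc2 : v * f * v⁻¹ * f⁻¹ ∈ B' :=
        mul_mem (((mem_normalizer_iff.1 (hTN (hVT hv))) f).1 hfB) (inv_mem hfB)
      have hc3 : v * f * v⁻¹ * f⁻¹ ∈ V₁ := by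
        rcases hD'.cross.mem_or_of_sq hc2 (hVE _ hc1) with h12 | h12
        · exact h12
        · have h13 : v * (v * f * v⁻¹ * f⁻¹) * v⁻¹ ∈ ChoiceBase.cj v V₂ := ⟨_, h12, rfl⟩
          rw [hsw2] at h13
          have h14 : v * (v * f * v⁻¹ * f⁻¹) * v⁻¹ = v * f * v⁻¹ * f⁻¹ := by
            rw [comm_of_elem hVE hv hc1]; group
          rwa [h14] at h13
      have h15 : v * f * v⁻¹ = v * f * v⁻¹ * f⁻¹ * f := by group
      rw [h15]
      exact mul_mem hc3 hf
    obtain ⟨hsw1, hsw2⟩ := hD'.swap_of_not_mem (hTN ht) htB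
    have htV : cj t V = V := cj_eq_of_mem_normalizer (hXV (hTX₀ ht))
    have hVD : V ≤ V₁ ⊓ V₂ := by
      rcases hD'.cross.elem_le_or hVB hVE with h10 | h10
      · refine le_inf h10 ?_
        rw [← hsw1, ← htV]
        exact cj_mono t h10
      · refine le_inf ?_ h10
        rw [← hsw2, ← htV]
        exact cj_mono t h10
    have hVD' : V = V₁ ⊓ V₂ := by
      apply Subgroup.eq_of_le_of_card_ge hVD
      rw [hD'.cross.card_inf]
      have h10 : 2 ≤ Nat.card (zc T) :=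
        two_le_card (hTp.to_le (ChoiceSit.zc_le T)) (zc_ne_bot hTp hT1)
      have h11 : Nat.card (zc T) < Nat.card V := by
        refine lt_of_le_of_ne (Subgroup.card_le_of_le hlt.le) fun h => hlt.ne ?_
        exact Subgroup.eq_of_le_of_card_ge hlt.le h.ge
      have h12 : Nat.card V ∣ 2 * 2 := by
        rw [← hD'.cross.card_inf]; exact Subgroup.card_dvd_of_le hVD
      have h13 : Nat.card V ≠ 3 := by intro h; rw [h] at h12; norm_num at h12
      omega
    apply hX₀M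
    refine hXV.trans ?_
    rw [hVD']
    exact hD'.normalizer_inf_le.trans (hNP.le.trans hPM)
  subst hTB
  refine ⟨V₁, V₂, ⟨hD', ?_⟩⟩
  intro X hX hTX hXM
  have hsyl : Syl T X := syl_of_not_le hTJ hT hX hTX hXM
  have hlt : zc T < zc (o2 X) := zc_lt hL hZ hTJ hX hsyl hXM
  have hoT : o2 X ≤ T := o2_le_syl hsyl
  have hVo : zc (o2 X) ≤ o2 X := ChoiceSit.zc_le _
  have hVE := elem_zc (o2 X)
  have hV8 : 8 ≤ Nat.card (zc (o2 X)) := by
    have h11 : Nat.card (zc T) < Nat.card (zc (o2 X)) := by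
      refine lt_of_le_of_ne (Subgroup.card_le_of_le hlt.le) fun h => hlt.ne ?_
      exact Subgroup.eq_of_le_of_card_ge hlt.le h.ge
    rw [hD'.cross.zc_eq, hD'.cross.card_inf] at h11
    have h12 : Nat.card (zc (o2 X)) ∣ 4 * 2 := by
      rcases hD'.cross.elem_le_or (hVo.trans hoT) hVE with h13 | h13
      · rw [← hD'.cross.card₁]; exact Subgroup.card_dvd_of_le h13
      · rw [← hD'.cross.card₂]; exact Subgroup.card_dvd_of_le h13
    have h14 : Nat.card (zc (o2 X)) ≤ 8 := Nat.le_of_dvd (by norm_num) h12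
    generalize Nat.card (zc (o2 X)) = n at *
    interval_cases n <;> simp_all
  have hfin : ∀ V W : Subgroup G, Dat 2 T V W → zc (o2 X) = V → X = normalizer (V : Set G) := by
    intro V W hVW hz
    have h1 : o2 X = V := by
      apply le_antisymm ?_ (hz ▸ hVo)
      refine le_trans ?_ hVW.cross.cent₁
      rw [← hz]
      intro x hx
      rw [mem_centralizer_iff]
      exact fun y hy => ((mem_zc.1 hy).2.2 x hx).symm
    have h2 : X ≤ normalizer (V : Set G) := by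
      rw [← h1]; exact ChoiceSit.le_normalizer_o2 X
    rcases hVW.eq_or_eq hTX h2 with h3 | h3
    · exact absurd (h3.le.trans hTM) hXM
    · exact h3
  rcases hD'.cross.eq_or_of_card (hVo.trans hoT) hVE hV8 with h10 | h10
  · exact Or.inl (hfin V₁ V₂ hD' h10)
  · exact Or.inr (hfin V₂ V₁ hD'.symm h10)

end Two

/-- **Structure theorem.** -/
theorem exists_ts [Finite G] (hL : IsCharacteristicTwoType G)
    (hN : ∀ N : Subgroup G, IsTwoLocal N → Group.IsSolvable N)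
    (hZ : ∀ S : Sylow 2 G, centralizer (zc (S : Subgroup G) : Set G) ≤
      normalizer ((S : Subgroup G) : Set G)) (hO : pCore 2 G = ⊥)
    (S : Sylow 2 G) {M : Subgroup G} (hM : IsTwoLocal M)
    (hMJ : normalizer ((jj (S : Subgroup G) : Subgroup G) : Set G) ≤ M) {T : Subgroup G}
    (hT : T ∈ maxStraddlingTwoSubgroups M) :
    ∃ (e : ℕ) (U₁ U₂ : Subgroup G), TS e M T U₁ U₂ := by
  obtain ⟨N, B, P, Q, hctx⟩ := ZNCtx.exists_ctx hL hN hZ hO S hM hMJ
    (Set.nonempty_iff_ne_empty.1 ⟨T, hT.1⟩)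
  obtain ⟨e, U₁, U₂, hD⟩ := exists_dat_of_ctx hL hctx
  rcases hD.he with rfl | rfl
  · obtain ⟨V₁, V₂, h⟩ := one hL hZ hD (normalizer_jj_le S hMJ hT) hT
    exact ⟨1, V₁, V₂, h⟩
  · obtain ⟨V₁, V₂, h⟩ := two hL hZ S hM hD hMJ hT
    exact ⟨2, V₁, V₂, h⟩

end Cfsg.Agent.H252.ZNStruct
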